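import Cfsg.Agent.ChevU.Par
import Cfsg.Prelude.Def_ChevAutomorphisms

set_option autoImplicit false
set_option linter.unusedSectionVars false
set_option linter.unusedVariables false

/-!
# Generation by the monomial group and one root subgroup (helper17)
-/

namespace Cfsg.Agent.ChevU

open Cfsg.Lie Matrix Subgroup

variable {D : ChevalleyDatum} {F : Type*} [Field F] (R : RootFacts D) (G : Chev.Good D)

section
variable {M : Subgroup (GL D.Idx F)} (hN : D.monomialSubgroup F ≤ M)

include R G hN in
theorem root_refl {i s : ℕ} (hi : i < D.rank) (hs : s < D.nroots) (h : D.rootSubgroup F s ≤ M) :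
    D.rootSubgroup F (D.reflectRoot i s) ≤ M := by
  rw [rootSubgroup_eq] at h ⊢
  obtain ⟨η, hη, hc⟩ := n_conj (F := F) R G hi hs
  have hn : nU R (elemOfGood G F) (D.simple i) 1 ∈ M := hN (nU_mem_mono R (elemOfGood G F) (R.simple_lt i hi) one_ne_zero)
  apply clo_le R (elemOfGood G F)
  rintro s' rfl t
  have h1 := hc (η * t)
  rw [← mul_assoc, hη, one_mul] at h1
  rw [← h1]
  exact mul_mem (mul_mem hn (h (xr_mem_clo R (elemOfGood G F) (P := fun s' => s' = s) rfl _))) (inv_mem hn)

include R G hN in
theorem root_adj {i j : ℕ} (hi : i < D.rank) (hj : j < D.rank) (h1 : D.cartan i (D.simple j) = -1)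
    (h2 : D.cartan j (D.simple i) = -1) (h : D.rootSubgroup F (D.simple i) ≤ M) : D.rootSubgroup F (D.simple j) ≤ M := by
  have hs := R.simple_lt i hi
  have h3 := root_refl R G hN hi (R.refl_lt j hj _ hs) (root_refl R G hN hj hs h)
  have hne : i ≠ j := by
    rintro rfl
    rw [R.cartan_self i hi] at h1
    omega
  have h4 : D.reflectRoot i (D.reflectRoot j (D.simple i)) = D.simple j := by
    apply R.eq_of_vec (R.refl_lt i hi _ (R.refl_lt j hj _ hs)) (R.simple_lt j hj)
    intro k hk
    have h5 : ∀ k, R.vec (D.reflectRoot j (D.simple i)) k = (if k = i then 1 else 0) + (if k = j then 1 else 0) := by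
      intro k
      rw [R.vec_refl j hj _ hs, R.vec_simple i hi, h2]
      split_ifs <;> omega
    have h6 : D.cartan i (D.reflectRoot j (D.simple i)) = 1 := by
      rw [R.cartan_eq i hi _ (R.refl_lt j hj _ hs)]
      have h7 : ∀ k ∈ Finset.range D.rank, R.vec (D.reflectRoot j (D.simple i)) k * D.cartan i (D.simple k) =
          (if k = i then D.cartan i (D.simple i) else 0) + (if k = j then D.cartan i (D.simple j) else 0) := by
        intro k _
        rw [h5 k]
        split_ifs with h8 h9 h9
        · omega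
        · subst h8; ring
        · subst h9; ring
        · ring
      rw [Finset.sum_congr rfl h7, Finset.sum_add_distrib, Finset.sum_ite_eq', Finset.sum_ite_eq',
        if_pos (Finset.mem_range.mpr hi), if_pos (Finset.mem_range.mpr hj), R.cartan_self i hi, h1]
      norm_num
    rw [R.vec_refl i hi _ (R.refl_lt j hj _ hs), h5, h6, R.vec_simple j hj]
    split_ifs <;> omega
  rwa [h4] at h3

/-- one step of the closure of a set of nodes under simple bonds -/
def bstep (D : ChevalleyDatum) (l : List ℕ) : List ℕ :=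
  (List.range D.rank).filter fun j => l.contains j || l.any fun i => D.cartan i (D.simple j) == -1 && D.cartan j (D.simple i) == -1

/-- iterated closure -/
def breach (D : ChevalleyDatum) (l : List ℕ) : ℕ → List ℕ
  | 0 => l
  | n + 1 => bstep D (breach D l n)

include R G hN in
theorem breach_mem {l : List ℕ} (hl : ∀ i ∈ l, i < D.rank ∧ D.rootSubgroup F (D.simple i) ≤ M) (n : ℕ) :
    ∀ j ∈ breach D l n, j < D.rank ∧ D.rootSubgroup F (D.simple j) ≤ M := by
  induction n with
  | zero => exact hl
  | succ n ih =>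
    intro j hj
    have hj' : j ∈ bstep D (breach D l n) := hj
    unfold bstep at hj'
    rw [List.mem_filter, List.mem_range, Bool.or_eq_true, List.contains_iff_mem, List.any_eq_true] at hj'
    obtain ⟨h1, h2 | ⟨i, h2, h3⟩⟩ := hj'
    · exact ih j h2
    · rw [Bool.and_eq_true, beq_iff_eq, beq_iff_eq] at h3
      exact ⟨h1, root_adj R G hN (ih i h2).1 h1 h3.1 h3.2 (ih i h2).2⟩

include R G hN in
theorem group_le_of_simple (h : ∀ j < D.rank, D.rootSubgroup F (D.simple j) ≤ M) : D.group F ≤ M := by
  have h1 := Chev.simple_induction (P := fun r => D.rootSubgroup F r ≤ M) G (fun i hi r hr h => root_refl R G hN hi hr h) h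
  rw [group_eq_clo]
  apply clo_le R (elemOfGood G F)
  intro s hs t
  exact h1 s hs (by rw [rootSubgroup_eq]; exact xr_mem_clo R (elemOfGood G F) (P := fun s' => s' = s) rfl _)

include R G hN in
/-- a long simple root group from the short one -/
theorem long_of_short {i k : ℕ} (hi : i < D.rank) (hk : k < D.rank) (hik : D.reflectRoot k (D.simple i) ≠ D.simple i)
    (hik' : D.reflectRoot k (D.simple i) ≠ D.neg (D.simple i)) {c : ℤ} (hc : (c : F) ≠ 0)
    (hcomm : D.commTerms (D.neg (D.simple i)) (D.reflectRoot k (D.simple i)) = [(D.simple k, c, 1, 1)])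
    (h : D.rootSubgroup F (D.simple i) ≤ M) : D.rootSubgroup F (D.simple k) ≤ M := by
  have hs := R.simple_lt i hi
  have h1 := root_refl R G hN hi hs h
  have h2 := root_refl R G hN hk hs h
  have h3 : D.reflectRoot i (D.simple i) = D.neg (D.simple i) := by
    unfold ChevalleyDatum.reflectRoot; simp
  rw [h3] at h1
  have hr := R.neg_lt hs
  have hs2 := R.refl_lt k hk _ hs
  set E := elemOfGood G F
  rw [rootSubgroup_eq] at h1 h2 ⊢
  have m1 : ∀ t, xr R E (D.neg (D.simple i)) t ∈ M := fun t => h1 (xr_mem_clo R E (P := fun s' => s' = D.neg (D.simple i)) rfl _)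
  have m2 : ∀ t, xr R E (D.reflectRoot k (D.simple i)) t ∈ M := fun t =>
    h2 (xr_mem_clo R E (P := fun s' => s' = D.reflectRoot k (D.simple i)) rfl _)
  apply clo_le R E
  rintro _ rfl t
  have h4 := conj_xu R.tab E hr hs2 hik' (by rw [R.neg_neg hs]; exact hik) (-(t / c)) 1
  have h5 : wu R.tab E (D.commWord F (D.neg (D.simple i)) (D.reflectRoot k (D.simple i)) (-(t / c)) 1) = xu R.tab E (D.simple k) t := by
    unfold ChevalleyDatum.commWord
    rw [hcomm]
    unfold wu
    simp only [List.map_cons, List.map_nil, List.prod_cons, List.prod_nil, mul_one, pow_one, neg_neg]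
    congr 1
    field_simp
  rw [h5] at h4
  have h6 : xu R.tab E (D.simple k) t = (xu R.tab E (D.reflectRoot k (D.simple i)) 1)⁻¹ *
      ((xu R.tab E (D.neg (D.simple i)) (-(t / c)))⁻¹ * xu R.tab E (D.reflectRoot k (D.simple i)) 1 * xu R.tab E (D.neg (D.simple i)) (-(t / c))) := by
    rw [h4]; group
  show xu R.tab E (D.simple k) t ∈ M
  rw [h6]
  exact mul_mem (inv_mem (m2 1)) (mul_mem (mul_mem (inv_mem (m1 _)) (m2 1)) (m1 _))

end

end Cfsg.Agent.ChevU
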