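import Cfsg.Agent.ChevU.NX
import Cfsg.Agent.ChevU.All
import Cfsg.Agent.Chev.Desc

set_option autoImplicit false
set_option linter.unusedSectionVars false
set_option linter.unusedVariables false

/-!
# Generation by the monomial group and one root subgroup: the types (helper17)
-/

namespace Cfsg.Agent.ChevU

open Cfsg.Lie Matrix Subgroup

theorem breach_D4 : ∀ i < chevD4.rank, ∀ j < chevD4.rank, j ∈ breach chevD4 [i] 4 := by decide +kernel
theorem breach_E6 : ∀ i < chevE6.rank, ∀ j < chevE6.rank, j ∈ breach chevE6 [i] 6 := by decide +kernel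
theorem breach_E7 : ∀ i < chevE7.rank, ∀ j < chevE7.rank, j ∈ breach chevE7 [i] 7 := by decide +kernel
theorem breach_E8 : ∀ i < chevE8.rank, ∀ j < chevE8.rank, j ∈ breach chevE8 [i] 8 := by decide +kernel

theorem short_B2 : ∀ i < chevB2.rank, chevB2.isLong (chevB2.simple i) = false → i = 0 := by decide +kernel
theorem short_G2 : ∀ i < chevG2.rank, chevG2.isLong (chevG2.simple i) = false → i = 0 := by decide +kernel
theorem short_F4 : ∀ i < chevF4.rank, chevF4.isLong (chevF4.simple i) = false → 1 ∈ breach chevF4 [i] 2 ∧ 0 ∈ breach chevF4 [i] 2 := by decide +kernel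
theorem long_B2 : ∀ i < chevB2.rank, chevB2.isLong (chevB2.simple i) = true → i = 1 := by decide +kernel
theorem long_G2 : ∀ i < chevG2.rank, chevG2.isLong (chevG2.simple i) = true → i = 1 := by decide +kernel
set_option synthInstance.maxSize 1000 in
set_option synthInstance.maxHeartbeats 200000 in
theorem breach_F4 : ∀ i < chevF4.rank, ∀ j < chevF4.rank, ∀ k < chevF4.rank, (chevF4.isLong (chevF4.simple i) = false ∧
  chevF4.isLong (chevF4.simple j) = true) → k ∈ breach chevF4 [i, j] 4 := by decide +kernel
theorem breach_F4' : ∀ k < chevF4.rank, k ∈ breach chevF4 [1, 2] 2 := by decide +kernel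

theorem comm_B2 : chevB2.commTerms (chevB2.neg (chevB2.simple 0)) (chevB2.reflectRoot 1 (chevB2.simple 0)) = [(chevB2.simple 1, -2, 1, 1)] := by
  decide +kernel
theorem comm_G2 : chevG2.commTerms (chevG2.neg (chevG2.simple 0)) (chevG2.reflectRoot 1 (chevG2.simple 0)) = [(chevG2.simple 1, -3, 1, 1)] := by
  decide +kernel
theorem comm_F4 : chevF4.commTerms (chevF4.neg (chevF4.simple 1)) (chevF4.reflectRoot 2 (chevF4.simple 1)) = [(chevF4.simple 2, -2, 1, 1)] := by
  decide +kernel

theorem cast_ne_zero_of_ringChar {F : Type*} [Field F] {p : ℕ} (hp : p.Prime) (h : ringChar F ≠ p) : ((-(p : ℤ) : ℤ) : F) ≠ 0 := by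
  rw [Int.cast_neg, Int.cast_natCast, neg_ne_zero]
  intro h1
  rw [ringChar.spec] at h1
  rcases (Nat.dvd_prime hp).mp h1 with h2 | h2
  · exact one_ne_zero (α := F) (by
      have := (ringChar.spec F 1).mpr (by rw [h2])
      simp at this)
  · exact h h2

variable {F : Type*} [Field F]

/-- S2416 -/
theorem group_le_monomial_short {D : ChevalleyDatum} (hD : D ∈ [chevG2, chevB2, chevD4, chevF4, chevE6, chevE7, chevE8])
    (h2 : D ∈ [chevB2, chevF4] → ringChar F ≠ 2) (h3 : D = chevG2 → ringChar F ≠ 3)
    (i : ℕ) (hi : i < D.rank) (hshort : D.isLong (D.simple i) = false) :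
    D.group F ≤ D.monomialSubgroup F ⊔ D.rootSubgroup F (D.simple i) := by
  have R := rootFacts hD
  have G := Chev.good_of_mem hD
  set M := D.monomialSubgroup F ⊔ D.rootSubgroup F (D.simple i) with hM
  have hN : D.monomialSubgroup F ≤ M := le_sup_left
  have h0 : ∀ a ∈ [i], a < D.rank ∧ D.rootSubgroup F (D.simple a) ≤ M := by
    intro a ha
    rw [List.mem_singleton] at ha
    subst ha
    exact ⟨hi, le_sup_right⟩
  apply group_le_of_simple R G hN
  intro j hj
  simp only [List.mem_cons, List.not_mem_nil, or_false] at hD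
  rcases hD with rfl | rfl | rfl | rfl | rfl | rfl | rfl
  · have e := short_G2 i hi hshort
    subst e
    have h4 := long_of_short (F := F) R G hN (i := 0) (k := 1) (by decide +kernel) (by decide +kernel) (by decide +kernel)
      (by decide +kernel) (cast_ne_zero_of_ringChar (F := F) Nat.prime_three (h3 rfl)) comm_G2 (h0 0 (by simp)).2
    have hj' : j = 0 ∨ j = 1 := by
      have : chevG2.rank = 2 := by decide +kernel
      omega
    rcases hj' with rfl | rfl
    · exact (h0 0 (by simp)).2
    · exact h4
  · have e := short_B2 i hi hshort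
    subst e
    have h4 := long_of_short (F := F) R G hN (i := 0) (k := 1) (by decide +kernel) (by decide +kernel) (by decide +kernel)
      (by decide +kernel) (cast_ne_zero_of_ringChar (F := F) Nat.prime_two (h2 (by simp))) comm_B2 (h0 0 (by simp)).2
    have hj' : j = 0 ∨ j = 1 := by
      have : chevB2.rank = 2 := by decide +kernel
      omega
    rcases hj' with rfl | rfl
    · exact (h0 0 (by simp)).2
    · exact h4
  · exact (breach_mem R G hN h0 4 j (breach_D4 i hi j hj)).2
  · have e := short_F4 i hi hshort
    have h5 := breach_mem R G hN h0 2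
    have h4 := long_of_short (F := F) R G hN (i := 1) (k := 2) (by decide +kernel) (by decide +kernel) (by decide +kernel)
      (by decide +kernel) (cast_ne_zero_of_ringChar (F := F) Nat.prime_two (h2 (by simp))) comm_F4 (h5 1 e.1).2
    have h6 : ∀ a ∈ [1, 2], a < chevF4.rank ∧ chevF4.rootSubgroup F (chevF4.simple a) ≤ M := by
      intro a ha
      simp only [List.mem_cons, List.not_mem_nil, or_false] at ha
      rcases ha with rfl | rfl
      · exact h5 1 e.1
      · exact ⟨by decide +kernel, h4⟩
    exact (breach_mem R G hN h6 2 j (breach_F4' j hj)).2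
  · exact (breach_mem R G hN h0 6 j (breach_E6 i hi j hj)).2
  · exact (breach_mem R G hN h0 7 j (breach_E7 i hi j hj)).2
  · exact (breach_mem R G hN h0 8 j (breach_E8 i hi j hj)).2

/-- S2417 -/
theorem group_le_monomial_two {D : ChevalleyDatum} (hD : D ∈ [chevB2, chevF4, chevG2])
    (i j : ℕ) (hi : i < D.rank) (hj : j < D.rank) (hshort : D.isLong (D.simple i) = false)
    (hlong : D.isLong (D.simple j) = true) :
    D.group F ≤ D.monomialSubgroup F ⊔ D.rootSubgroup F (D.simple i) ⊔ D.rootSubgroup F (D.simple j) := by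
  have hD' : D ∈ [chevG2, chevB2, chevD4, chevF4, chevE6, chevE7, chevE8] := by
    simp only [List.mem_cons, List.not_mem_nil, or_false] at hD ⊢
    rcases hD with rfl | rfl | rfl <;> simp
  have R := rootFacts hD'
  have G := Chev.good_of_mem hD'
  set M := D.monomialSubgroup F ⊔ D.rootSubgroup F (D.simple i) ⊔ D.rootSubgroup F (D.simple j) with hM
  have hN : D.monomialSubgroup F ≤ M := le_trans le_sup_left le_sup_left
  have hXi : D.rootSubgroup F (D.simple i) ≤ M := le_trans le_sup_right le_sup_left
  have hXj : D.rootSubgroup F (D.simple j) ≤ M := le_sup_right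
  apply group_le_of_simple R G hN
  intro k hk
  simp only [List.mem_cons, List.not_mem_nil, or_false] at hD
  rcases hD with rfl | rfl | rfl
  · have e := short_B2 i hi hshort
    have e' := long_B2 j hj hlong
    have hj' : k = 0 ∨ k = 1 := by
      have : chevB2.rank = 2 := by decide +kernel
      omega
    rcases hj' with rfl | rfl
    · rw [← e]; exact hXi
    · rw [← e']; exact hXj
  · have h6 : ∀ a ∈ [i, j], a < chevF4.rank ∧ chevF4.rootSubgroup F (chevF4.simple a) ≤ M := by
      intro a ha
      simp only [List.mem_cons, List.not_mem_nil, or_false] at ha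
      rcases ha with rfl | rfl
      · exact ⟨hi, hXi⟩
      · exact ⟨hj, hXj⟩
    exact (breach_mem R G hN h6 4 k (breach_F4 i hi j hj k hk ⟨hshort, hlong⟩)).2
  · have e := short_G2 i hi hshort
    have e' := long_G2 j hj hlong
    have hj' : k = 0 ∨ k = 1 := by
      have : chevG2.rank = 2 := by decide +kernel
      omega
    rcases hj' with rfl | rfl
    · rw [← e]; exact hXi
    · rw [← e']; exact hXj

end Cfsg.Agent.ChevU
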