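import Cfsg.Agent.ChevU.OddA
import Cfsg.Agent.ChevU.All
import Cfsg.Agent.LSG.Move
import Cfsg.Agent.Chev.Graph

set_option autoImplicit false
set_option linter.unusedSectionVars false
set_option linter.unusedVariables false
set_option maxRecDepth 100000

/-!
# Chevalley groups are generated by two elements: closure of sets of root subgroups (helper17)
-/

namespace Cfsg.Agent.ChevU.TG

open Cfsg.Lie Cfsg.Agent.Chev Cfsg.Agent.ChevGrp Cfsg.Agent.ChevWeyl Matrix

section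

variable {D : ChevalleyDatum} {F : Type*} [Field F] (H : Good D)

theorem xU_mg {r : ℕ} (hr : r < D.nroots) (t : F) : xU H.toGood2 r t ∈ D.group F := by
  refine Subgroup.subset_closure ⟨⟨r, hr⟩, t, ?_⟩
  rw [Inst.val_xU, x_eq hr]

theorem nU_mem {r : ℕ} (hr : r < D.nroots) (c : F) {Q : Subgroup (GL D.Idx F)} (h : ∀ t, xU H.toGood2 r t ∈ Q)
    (h' : ∀ t, xU H.toGood2 (D.neg r) t ∈ Q) : Inst.nU H r c ∈ Q := by
  rw [Inst.nU_eq]
  exact mul_mem (mul_mem (h _) (h' _)) (h _)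

/-- product of simple reflections -/
noncomputable def nW (W : List ℕ) : GL D.Idx F := (W.map (Inst.nn H F)).prod

theorem nW_cons (i : ℕ) (W : List ℕ) : (nW H (i :: W) : GL D.Idx F) = Inst.nn H F i * nW H W := by simp [nW]

theorem nW_conj {W : List ℕ} (hW : ∀ i ∈ W, i < D.rank) {r : ℕ} (hr : r < D.nroots) :
    ∃ e : F, (e = 1 ∨ e = -1) ∧ ∀ t, nW H W * xU H.toGood2 r t * (nW H W)⁻¹ = xU H.toGood2 (wact D W r) (e * t) := by
  induction W with
  | nil => exact ⟨1, Or.inl rfl, fun t => by simp [nW, wact]⟩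
  | cons i W ih =>
    obtain ⟨e, he, h⟩ := ih fun i hi => hW i (List.mem_cons_of_mem _ hi)
    have hi := hW i List.mem_cons_self
    have hr' : wact D W r < D.nroots := wact_lt H (fun i hi => hW i (List.mem_cons_of_mem _ hi)) hr
    refine ⟨((eta D i (wact D W r) : ℤ) : F) * e, ?_, fun t => ?_⟩
    · rcases Inst.eta_pm (F := F) H hi hr' with h1 | h1 <;> rcases he with rfl | rfl <;> rw [h1] <;> simp
    · rw [nW_cons, wact_cons]
      have e1 : Inst.nn H F i * nW H W * xU H.toGood2 r t * (Inst.nn H F i * nW H W)⁻¹ =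
          Inst.nn H F i * (nW H W * xU H.toGood2 r t * (nW H W)⁻¹) * (Inst.nn H F i)⁻¹ := by group
      rw [e1, h, Inst.nn_xU H hi hr', mul_assoc]

theorem nW_hU {W : List ℕ} (hW : ∀ i ∈ W, i < D.rank) {r : ℕ} (hr : r < D.nroots) {c : F} (hc : c ≠ 0) :
    nW H W * Inst.hU H r c * (nW H W)⁻¹ = Inst.hU H (wact D W r) c := by
  induction W with
  | nil => simp [nW, wact]
  | cons i W ih =>
    have hi := hW i List.mem_cons_self
    have hW' := fun i hi => hW i (List.mem_cons_of_mem _ hi)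
    have hr' : wact D W r < D.nroots := wact_lt H hW' hr
    rw [nW_cons, wact_cons]
    have e1 : Inst.nn H F i * nW H W * Inst.hU H r c * (Inst.nn H F i * nW H W)⁻¹ =
        Inst.nn H F i * (nW H W * Inst.hU H r c * (nW H W)⁻¹) * (Inst.nn H F i)⁻¹ := by group
    rw [e1, ih hW', Inst.nn_hU H hi hr' hc]

theorem nW_mem {W : List ℕ} (hW : ∀ i ∈ W, i < D.rank) : (nW H W : GL D.Idx F) ∈ D.group F := by
  unfold nW
  apply Subgroup.list_prod_mem
  intro x hx
  obtain ⟨i, hi, rfl⟩ := List.mem_map.mp hx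
  exact nU_mem H (H.simple_lt i (hW i hi)) 1 (xU_mg H (H.simple_lt i (hW i hi))) (xU_mg H (neg_lt H.toGood1 (H.simple_lt i (hW i hi))))

theorem hU_mul {r : ℕ} (hr : r < D.nroots) {t u : F} (ht : t ≠ 0) (hu : u ≠ 0) : Inst.hU H r t * Inst.hU H r u = Inst.hU H r (t * u) := by
  refine Units.ext ?_
  rw [Units.val_mul, Inst.val_hU, Inst.val_hU, Inst.val_hU]
  exact hMat_mul H hr ht hu

theorem hU_one (r : ℕ) : Inst.hU H r (1 : F) = 1 := by
  unfold Inst.hU
  rw [Inst.nU_neg, mul_inv_cancel]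

theorem hU_pow {r : ℕ} (hr : r < D.nroots) {t : F} (ht : t ≠ 0) (n : ℕ) : Inst.hU H r t ^ n = Inst.hU H r (t ^ n) := by
  induction n with
  | zero => rw [pow_zero, pow_zero, hU_one]
  | succ n ih => rw [pow_succ, ih, hU_mul H hr (pow_ne_zero _ ht) ht, pow_succ]

theorem hU_comm {r s : ℕ} (hr : r < D.nroots) (hs : s < D.nroots) {t u : F} (ht : t ≠ 0) (hu : u ≠ 0) :
    Inst.hU H r t * Inst.hU H s u = Inst.hU H s u * Inst.hU H r t := by
  refine Units.ext ?_
  rw [Units.val_mul, Units.val_mul, Inst.val_hU' H hr ht, Inst.val_hU' H hs hu]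
  unfold hD
  rw [Matrix.diagonal_mul_diagonal, Matrix.diagonal_mul_diagonal]
  congr 1
  funext x
  exact mul_comm _ _

theorem hU_mem_group {r : ℕ} (hr : r < D.nroots) (t : F) : Inst.hU H r t ∈ D.group F :=
  mul_mem (nU_mem H hr _ (xU_mg H hr) (xU_mg H (neg_lt H.toGood1 hr))) (nU_mem H hr _ (xU_mg H hr) (xU_mg H (neg_lt H.toGood1 hr)))

theorem xU_pow {r : ℕ} (hr : r < D.nroots) (t : F) (n : ℕ) : xU H.toGood2 r t ^ n = xU H.toGood2 r (n * t) := by
  induction n with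
  | zero => rw [pow_zero, Nat.cast_zero, zero_mul, Inst.xU_zero]
  | succ n ih => rw [pow_succ, ih, Inst.xU_add H.toGood2 hr]; congr 1; push_cast; ring

/-- the root subgroup is contained in `Q` -/
def Has (Q : Subgroup (GL D.Idx F)) (r : ℕ) : Prop := ∀ t : F, xU H.toGood2 r t ∈ Q

/-- some nontrivial root element is contained in `Q` -/
def One (Q : Subgroup (GL D.Idx F)) (r : ℕ) : Prop := ∃ t : F, t ≠ 0 ∧ xU H.toGood2 r t ∈ Q

variable {H} {Q : Subgroup (GL D.Idx F)}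

theorem Has.move {W : List ℕ} (hW : ∀ i ∈ W, i < D.rank) (hQ : nW H W ∈ Q) {r : ℕ} (hr : r < D.nroots) (h : Has H Q r) : Has H Q (wact D W r) := by
  obtain ⟨e, he, h1⟩ := nW_conj (F := F) H hW hr
  intro t
  have he2 : e * e = 1 := by rcases he with rfl | rfl <;> ring
  have h2 := h1 (e * t)
  rw [← mul_assoc, he2, one_mul] at h2
  rw [← h2]
  exact mul_mem (mul_mem hQ (h _)) (inv_mem hQ)

theorem One.back {W : List ℕ} (hW : ∀ i ∈ W, i < D.rank) (hQ : nW H W ∈ Q) {r : ℕ} (hr : r < D.nroots) (h : One H Q (wact D W r)) : One H Q r := by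
  obtain ⟨e, he, h1⟩ := nW_conj (F := F) H hW hr
  obtain ⟨t, ht, h⟩ := h
  have he2 : e * e = 1 := by rcases he with rfl | rfl <;> ring
  have he0 : e ≠ 0 := left_ne_zero_of_mul_eq_one he2
  refine ⟨e * t, mul_ne_zero he0 ht, ?_⟩
  have h2 := h1 (e * t)
  rw [← mul_assoc, he2, one_mul] at h2
  have h3 : xU H.toGood2 r (e * t) = (nW H W)⁻¹ * xU H.toGood2 (wact D W r) t * nW H W := by
    rw [← h2]; group
  rw [h3]
  exact mul_mem (mul_mem (inv_mem hQ) h) hQ

theorem One.backs {W : List ℕ} (hW : ∀ i ∈ W, i < D.rank) (hQ : nW H W ∈ Q) (k : ℕ) {r : ℕ} (hr : r < D.nroots) (h : One H Q ((wact D W)^[k] r)) :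
    One H Q r := by
  induction k generalizing r with
  | zero => exact h
  | succ k ih =>
    rw [Function.iterate_succ_apply] at h
    exact (ih (wact_lt H hW hr) h).back hW hQ hr

theorem Has.of_one [Fintype F] {h : GL D.Idx F} (hh : h ∈ Q) {r : ℕ} {χ : Fˣ} (hχ : ∀ x : Fˣ, x ∈ Subgroup.zpowers χ)
    (h1 : ∀ t, h * xU H.toGood2 r t * h⁻¹ = xU H.toGood2 r ((χ : F) * t)) (h2 : One H Q r) : Has H Q r := by
  obtain ⟨u, hu, h2⟩ := h2
  have key : ∀ n : ℕ, xU H.toGood2 r ((χ : F) ^ n * u) ∈ Q := by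
    intro n
    induction n with
    | zero => rw [pow_zero, one_mul]; exact h2
    | succ n ih =>
      have := mul_mem (mul_mem hh ih) (inv_mem hh)
      rw [h1, ← mul_assoc, ← pow_succ'] at this
      exact this
  intro t
  by_cases ht : t = 0
  · rw [ht, Inst.xU_zero]; exact one_mem _
  · obtain ⟨n, hn⟩ := (Submonoid.mem_powers_iff _ _).1 ((mem_powers_iff_mem_zpowers).2 (hχ (Units.mk0 (t / u) (div_ne_zero ht hu))))
    have h3 : (χ : F) ^ n = t / u := by
      have := congrArg (fun u : Fˣ => (u : F)) hn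
      simpa using this
    have h4 := key n
    rw [h3, div_mul_cancel₀ _ hu] at h4
    exact h4

theorem comm_one (H : Good D) {r s v : ℕ} {n : ℤ} (hr : r < D.nroots) (hs : s < D.nroots) (h1 : s ≠ r) (h2 : s ≠ D.neg r) (hc : D.commTerms r s = [(v, n, 1, 1)])
    (t u : F) : xU H.toGood2 s u * xU H.toGood2 r t = xU H.toGood2 r t * xU H.toGood2 s u * xU H.toGood2 v ((n : F) * (-t) * u) := by
  refine Units.ext ?_
  rw [Units.val_mul, Units.val_mul, Units.val_mul]
  have h := H.comm hr hs h1 h2 t u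
  unfold ChevalleyDatum.commWord at h
  rw [hc] at h
  simp only [List.map_cons, List.map_nil, ChevalleyDatum.wordMat, List.prod_cons, List.prod_nil, mul_one, pow_one] at h
  exact h

theorem comm_two (H : Good D) {r s v w : ℕ} {n m : ℤ} (hr : r < D.nroots) (hs : s < D.nroots) (h1 : s ≠ r) (h2 : s ≠ D.neg r)
    (hc : D.commTerms r s = [(v, n, 1, 1), (w, m, 1, 2)])
    (t u : F) : xU H.toGood2 s u * xU H.toGood2 r t = xU H.toGood2 r t * xU H.toGood2 s u * (xU H.toGood2 v ((n : F) * (-t) * u) *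
      xU H.toGood2 w ((m : F) * (-t) * u ^ 2)) := by
  refine Units.ext ?_
  rw [Units.val_mul, Units.val_mul, Units.val_mul, Units.val_mul]
  have h := H.comm hr hs h1 h2 t u
  unfold ChevalleyDatum.commWord at h
  rw [hc] at h
  simp only [List.map_cons, List.map_nil, ChevalleyDatum.wordMat, List.prod_cons, List.prod_nil, mul_one, pow_one] at h
  exact h

theorem comm_nil (H : Good D) {r s : ℕ} (hr : r < D.nroots) (hs : s < D.nroots) (h1 : s ≠ r) (h2 : s ≠ D.neg r) (hc : D.commTerms r s = [])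
    (t u : F) : xU H.toGood2 s u * xU H.toGood2 r t = xU H.toGood2 r t * xU H.toGood2 s u := by
  refine Units.ext ?_
  rw [Units.val_mul, Units.val_mul]
  have h := H.comm hr hs h1 h2 t u
  unfold ChevalleyDatum.commWord at h
  rw [hc] at h
  simp only [List.map_nil, ChevalleyDatum.wordMat, List.prod_nil, mul_one] at h
  exact h

theorem Has.comm {r s v : ℕ} {n : ℤ} (hr : r < D.nroots) (hs : s < D.nroots) (h1 : s ≠ r) (h2 : s ≠ D.neg r) (hc : D.commTerms r s = [(v, n, 1, 1)])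
    (hn : (n : F) ≠ 0) (hrQ : Has H Q r) (hsQ : Has H Q s) : Has H Q v := by
  intro z
  have h := comm_one H hr hs h1 h2 hc (-((n : F)⁻¹ * z)) 1
  have e : (n : F) * (- -((n : F)⁻¹ * z)) * 1 = z := by
    rw [_root_.neg_neg, mul_one, mul_inv_cancel_left₀ hn]
  rw [e] at h
  have h3 : xU H.toGood2 v z = (xU H.toGood2 r (-((n : F)⁻¹ * z)) * xU H.toGood2 s 1)⁻¹ * (xU H.toGood2 s 1 * xU H.toGood2 r (-((n : F)⁻¹ * z))) := by
    rw [h]; group
  rw [h3]
  exact mul_mem (inv_mem (mul_mem (hrQ _) (hsQ _))) (mul_mem (hsQ _) (hrQ _))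

/-- validity of a step -/
def okStep (D : ChevalleyDatum) (W : List ℕ) (K : List ℕ) (p : ℕ × ℕ × ℕ) : Bool :=
  decide (p.2.2 < D.nroots) &&
  if p.1 = p.2.1 then K.contains p.1 && wact D W p.1 == p.2.2
  else K.contains p.1 && K.contains p.2.1 && !(p.2.1 == D.neg p.1) &&
    match D.commTerms p.1 p.2.1 with
    | [(v, n, 1, 1)] => v == p.2.2 && (n == 1 || n == -1)
    | _ => false

/-- validity of a certificate -/
def chk (D : ChevalleyDatum) (W : List ℕ) : List (ℕ × ℕ × ℕ) → List ℕ → Bool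
  | [], _ => true
  | p :: P, K => okStep D W K p && chk D W P (p.2.2 :: K)

theorem chk_has {W : List ℕ} (hW : ∀ i ∈ W, i < D.rank) (hQ : nW H W ∈ Q) :
    ∀ (P : List (ℕ × ℕ × ℕ)) (K : List ℕ), (∀ r ∈ K, r < D.nroots ∧ Has H Q r) → chk D W P K = true →
      ∀ r ∈ K ++ P.map (fun p => p.2.2), r < D.nroots ∧ Has H Q r := by
  intro P
  induction P with
  | nil => intro K hK _ r hr; simp at hr; exact hK r hr
  | cons p P ih =>
    intro K hK hchk r hr
    unfold chk at hchk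
    rw [Bool.and_eq_true] at hchk
    obtain ⟨h1, h2⟩ := hchk
    refine ih (p.2.2 :: K) ?_ h2 r ?_
    · intro r hr
      rcases List.mem_cons.mp hr with rfl | hr
      · unfold okStep at h1
        rw [Bool.and_eq_true, decide_eq_true_eq] at h1
        obtain ⟨hlt, h1⟩ := h1
        refine ⟨hlt, ?_⟩
        split_ifs at h1 with h3
        · rw [Bool.and_eq_true] at h1
          have h4 := hK p.1 (List.contains_iff_mem.mp h1.1)
          have h5 : wact D W p.1 = p.2.2 := by simpa using h1.2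
          rw [← h5]
          exact h4.2.move hW hQ h4.1
        · rw [Bool.and_eq_true, Bool.and_eq_true, Bool.and_eq_true] at h1
          obtain ⟨⟨⟨h4, h5⟩, h6⟩, h7⟩ := h1
          have k1 := hK p.1 (List.contains_iff_mem.mp h4)
          have k2 := hK p.2.1 (List.contains_iff_mem.mp h5)
          have h8 : p.2.1 ≠ D.neg p.1 := by
            intro h
            rw [h] at h6
            simp at h6
          split at h7
          · next v n h9 =>
            rw [Bool.and_eq_true, Bool.or_eq_true] at h7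
            have hv : v = p.2.2 := by simpa using h7.1
            rw [← hv]
            refine Has.comm k1.1 k2.1 (Ne.symm h3) h8 h9 ?_ k1.2 k2.2
            rcases h7.2 with h | h
            · have : n = 1 := by simpa using h
              rw [this]; simp
            · have : n = -1 := by simpa using h
              rw [this]; simp
          · exact absurd h7 (by simp)
      · exact hK r hr
    · rw [List.map_cons, List.mem_append, List.mem_cons] at hr
      rw [List.mem_append, List.mem_cons]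
      tauto

/-- all roots are reached -/
def fullL (D : ChevalleyDatum) (P : List (ℕ × ℕ × ℕ)) (K : List ℕ) : Bool :=
  (List.range D.nroots).all fun r => (K ++ P.map fun p => p.2.2).contains r

theorem group_le' (h : ∀ r < D.nroots, Has H Q r) : D.group F ≤ Q := by
  apply group_le_of_x
  intro g r t hr hg
  have e : g = xU H.toGood2 r t := Units.ext hg
  rw [e]
  exact h r hr t

theorem group_le_chk {W : List ℕ} (hW : ∀ i ∈ W, i < D.rank) (hQ : nW H W ∈ Q) {P : List (ℕ × ℕ × ℕ)} {K : List ℕ}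
    (hK : ∀ r ∈ K, r < D.nroots ∧ Has H Q r) (h1 : chk D W P K = true) (h2 : fullL D P K = true) : D.group F ≤ Q := by
  apply group_le' (H := H)
  intro r hr
  unfold fullL at h2
  rw [List.all_eq_true] at h2
  exact (chk_has hW hQ P K hK h1 r (List.contains_iff_mem.mp (h2 r (List.mem_range.mpr hr)))).2

/-- transfer of generation -/
theorem two_of {a b : GL D.Idx F} (ha : a ∈ D.group F) (hb : b ∈ D.group F) (h : D.group F ≤ Subgroup.closure {a, b}) :
    ∃ a b : ↥(D.group F), Subgroup.closure ({a, b} : Set ↥(D.group F)) = ⊤ := by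
  refine ⟨⟨a, ha⟩, ⟨b, hb⟩, ?_⟩
  rw [eq_top_iff]
  rintro ⟨g, hg⟩ -
  have h1 : Subgroup.closure {a, b} ≤ (Subgroup.closure ({⟨a, ha⟩, ⟨b, hb⟩} : Set ↥(D.group F))).map (D.group F).subtype := by
    rw [Subgroup.closure_le]
    intro x hx
    rcases hx with rfl | hx
    · exact ⟨⟨x, ha⟩, Subgroup.subset_closure (by simp), rfl⟩
    · have hx' : x = b := hx
      subst hx'
      exact ⟨⟨x, hb⟩, Subgroup.subset_closure (by simp), rfl⟩
  obtain ⟨y, hy, hy'⟩ := h1 (h hg)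
  have : y = ⟨g, hg⟩ := Subtype.ext hy'
  rw [← this]
  exact hy

/-- generators of the multiplicative group -/
theorem gen_inv {ζ : Fˣ} (hζ : ∀ x : Fˣ, x ∈ Subgroup.zpowers ζ) {e : ℤ} (he : e = 1 ∨ e = -1) : ∀ x : Fˣ, x ∈ Subgroup.zpowers (ζ ^ e) := by
  intro x
  rcases he with rfl | rfl
  · rw [zpow_one]; exact hζ x
  · rw [_root_.zpow_neg, zpow_one, Subgroup.zpowers_inv]; exact hζ x

/-- fields with more than two elements: the basic elements -/
theorem big_mem [Fintype F] (H : Good D) {W : List ℕ} (hW : ∀ i ∈ W, i < D.rank) {a b s : ℕ} (ha : a < D.nroots) (hb : b < D.nroots) (hs : s < D.nroots)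
    (h1 : pr D s a = 1 ∨ pr D s a = -1) (h2 : pr D (wact D W s) a = 1 ∨ pr D (wact D W s) a = -1) (h3 : pr D s b = 0)
    {ζ : Fˣ} (hζ : ∀ x : Fˣ, x ∈ Subgroup.zpowers ζ) (hζ1 : ζ ≠ 1) {Q : Subgroup (GL D.Idx F)}
    (hg1 : Inst.hU H s (ζ : F) * xU H.toGood2 b 1 ∈ Q) (hg2 : xU H.toGood2 a 1 * nW H W ∈ Q) :
    nW H W ∈ Q ∧ Has H Q a ∧ One H Q b ∧ Inst.hU H s (ζ : F) ∈ Q := by
  have hζ0 : (ζ : F) ≠ 0 := Units.ne_zero ζ
  have hcom : Commute (Inst.hU H s (ζ : F)) (xU H.toGood2 b (1 : F)) := by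
    have h4 := Inst.hU_xU H hs hζ0 hb (1 : F)
    rw [h3, zpow_zero, one_mul] at h4
    show _ * _ = _ * _
    exact mul_inv_eq_iff_eq_mul.mp h4
  have hh : Inst.hU H s (ζ : F) ∈ Q := by
    have h4 := pow_mem hg1 (Fintype.card F)
    rw [hcom.mul_pow, hU_pow H hs hζ0, FiniteField.pow_card, xU_pow H hb, mul_one, FiniteField.cast_card_eq_zero, Inst.xU_zero, mul_one] at h4
    exact h4
  have hb1 : xU H.toGood2 b (1 : F) ∈ Q := by
    have := mul_mem (inv_mem hh) hg1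
    rwa [inv_mul_cancel_left] at this
  have hws : wact D W s < D.nroots := wact_lt H hW hs
  have hha : ∀ t : F, Inst.hU H s (ζ : F) * xU H.toGood2 a t * (Inst.hU H s (ζ : F))⁻¹ = xU H.toGood2 a (((ζ ^ pr D s a : Fˣ) : F) * t) := by
    intro t
    rw [Inst.hU_xU H hs hζ0 ha, Units.val_zpow_eq_zpow_val]
  have hOne : One H Q a := by
    have h4 := Cfsg.Agent.LSG.comm_calc (x := fun t : F => xU H.toGood2 a t) (h := Inst.hU H s (ζ : F)) (h' := Inst.hU H (wact D W s) (ζ : F))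
      (n := nW H W) (χ := ((ζ ^ pr D s a : Fˣ) : F)) (μ := ((ζ ^ pr D (wact D W s) a : Fˣ) : F))
      (fun t u => (Inst.xU_add H.toGood2 ha t u).symm) hha (nW_hU H hW hs hζ0).symm
      (fun t => by rw [Inst.hU_xU H hws hζ0 ha, Units.val_zpow_eq_zpow_val]) (hU_comm H hs hws hζ0 hζ0) (Q := Q) hh hg2
    refine ⟨_, ?_, h4⟩
    have key : ∀ e : ℤ, (e = 1 ∨ e = -1) → ((ζ ^ e : Fˣ) : F) ≠ 1 := by
      intro e he h
      have h5 : ζ ^ e = 1 := Units.ext h
      rcases he with rfl | rfl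
      · exact hζ1 (by simpa using h5)
      · exact hζ1 (by simpa using h5)
    exact mul_ne_zero (sub_ne_zero.2 (key _ h1)) (sub_ne_zero.2 (Ne.symm (key _ h2)))
  have hHas : Has H Q a := Has.of_one hh (gen_inv hζ h1) hha hOne
  refine ⟨?_, hHas, ⟨1, one_ne_zero, hb1⟩, hh⟩
  have := mul_mem (inv_mem (hHas 1)) hg2
  rwa [inv_mul_cancel_left] at this

theorem exists_gen [Fintype F] : ∃ ζ : Fˣ, ∀ x : Fˣ, x ∈ Subgroup.zpowers ζ := IsCyclic.exists_generator

theorem gen_ne_one {ζ : Fˣ} (hζ : ∀ x : Fˣ, x ∈ Subgroup.zpowers ζ) (hF : ∃ x : F, x ≠ 0 ∧ x ≠ 1) : ζ ≠ 1 := by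
  rintro rfl
  obtain ⟨x, hx, hx1⟩ := hF
  have := hζ (Units.mk0 x hx)
  rw [Subgroup.zpowers_one_eq_bot, Subgroup.mem_bot] at this
  apply hx1
  have h2 := congrArg (fun u : Fˣ => (u : F)) this
  simpa using h2

theorem two_big [Fintype F] (H : Good D) (hF : ∃ x : F, x ≠ 0 ∧ x ≠ 1) {W : List ℕ} (hW : ∀ i ∈ W, i < D.rank) {a b b' s k : ℕ} (ha : a < D.nroots)
    (hb : b < D.nroots) (hb' : b' < D.nroots) (hs : s < D.nroots) (h1 : pr D s a = 1 ∨ pr D s a = -1)
    (h2 : pr D (wact D W s) a = 1 ∨ pr D (wact D W s) a = -1) (h3 : pr D s b = 0) (h4 : pr D s b' = 1 ∨ pr D s b' = -1)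
    (hk : (wact D W)^[k] b' = b) {P : List (ℕ × ℕ × ℕ)} (hc : chk D W P [a, b'] = true) (hf : fullL D P [a, b'] = true) :
    ∃ a b : ↥(D.group F), Subgroup.closure ({a, b} : Set ↥(D.group F)) = ⊤ := by
  obtain ⟨ζ, hζ⟩ := exists_gen (F := F)
  refine two_of (a := Inst.hU H s (ζ : F) * xU H.toGood2 b 1) (b := xU H.toGood2 a 1 * nW H W)
    (mul_mem (hU_mem_group H hs _) (xU_mg H hb _)) (mul_mem (xU_mg H ha _) (nW_mem H hW)) ?_
  set Q := Subgroup.closure {Inst.hU H s (ζ : F) * xU H.toGood2 b 1, xU H.toGood2 a 1 * nW H W} with hQ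
  obtain ⟨q1, q2, q3, q4⟩ := big_mem H hW ha hb hs h1 h2 h3 hζ (gen_ne_one hζ hF) (Q := Q) (Subgroup.subset_closure (by simp))
    (Subgroup.subset_closure (by simp))
  have q5 : One H Q b' := One.backs hW q1 k hb' (by rw [hk]; exact q3)
  have q6 : Has H Q b' := by
    refine Has.of_one q4 (gen_inv hζ h4) (fun t => ?_) q5
    rw [Inst.hU_xU H hs (Units.ne_zero ζ) hb', Units.val_zpow_eq_zpow_val]
  refine group_le_chk hW q1 (K := [a, b']) ?_ hc hf
  intro r hr
  simp only [List.mem_cons, List.not_mem_nil, or_false] at hr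
  rcases hr with rfl | rfl
  · exact ⟨ha, q2⟩
  · exact ⟨hb', q6⟩

/-- the field with two elements -/
theorem neg_one_eq (hF : ∀ x : F, x = 0 ∨ x = 1) : (-1 : F) = 1 := by
  rcases hF (-1) with h | h
  · exact absurd (neg_eq_zero.1 h) one_ne_zero
  · exact h

theorem add_one_eq (hF : ∀ x : F, x = 0 ∨ x = 1) : (1 : F) + 1 = 0 := by
  have := neg_one_eq hF
  nth_rw 1 [← this]
  exact neg_add_cancel 1

theorem has_iff (hF : ∀ x : F, x = 0 ∨ x = 1) {r : ℕ} : Has H Q r ↔ xU H.toGood2 r (1 : F) ∈ Q := by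
  constructor
  · intro h; exact h 1
  · intro h t
    rcases hF t with rfl | rfl
    · rw [Inst.xU_zero]; exact one_mem _
    · exact h

theorem sq_one (H : Good D) (hF : ∀ x : F, x = 0 ∨ x = 1) {r : ℕ} (hr : r < D.nroots) : xU H.toGood2 r (1 : F) * xU H.toGood2 r 1 = 1 := by
  rw [Inst.xU_add H.toGood2 hr, add_one_eq hF, Inst.xU_zero]

theorem c_cube (H : Good D) (hF : ∀ x : F, x = 0 ∨ x = 1) {g : ℕ} (hg : g < D.nroots) :
    (xU H.toGood2 g (1 : F) * xU H.toGood2 (D.neg g) 1) ^ 3 = 1 := by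
  set x := xU H.toGood2 g (1 : F)
  set y := xU H.toGood2 (D.neg g) (1 : F)
  have hxx : x * x = 1 := sq_one H hF hg
  have hyy : y * y = 1 := sq_one H hF (neg_lt H.toGood1 hg)
  have h1 : Inst.nU H g (1 : F) * x = y * Inst.nU H g (1 : F) := by
    apply Units.ext
    have h2 := nRel_all (F := F) H g hg 1 one_ne_zero 1
    rw [inv_one, one_pow, mul_one, neg_one_eq hF] at h2
    exact h2
  have h2 : Inst.nU H g (1 : F) = x * y * x := by
    rw [Inst.nU_eq, inv_one, neg_one_eq hF]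
  rw [h2] at h1
  -- `x y x x = y x y x`
  have h3 : x * y = y * x * y * x := by
    have e : x * y * x * x = x * y := by rw [mul_assoc (x * y), hxx, mul_one]
    rw [e] at h1
    rw [h1]; group
  have hx : x⁻¹ = x := inv_eq_of_mul_eq_one_left hxx
  have hy : y⁻¹ = y := inv_eq_of_mul_eq_one_left hyy
  have h4 : (x * y)⁻¹ = y * x := by rw [_root_.mul_inv_rev, hx, hy]
  have h5 : x * y = (x * y)⁻¹ * (x * y)⁻¹ := by
    rw [h4, ← mul_assoc]; exact h3
  have h6 : (x * y) ^ 3 = (x * y) * (x * y) * (x * y) := by rw [pow_succ, pow_two]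
  rw [h6]
  nth_rw 3 [h5]
  group

theorem small_mem (H : Good D) (hF : ∀ x : F, x = 0 ∨ x = 1) {b g : ℕ} (hb : b < D.nroots) (hg : g < D.nroots) (h1 : b ≠ g) (h2 : b ≠ D.neg g)
    (h2' : b ≠ D.neg (D.neg g)) (hc1 : D.commTerms g b = []) (hc2 : D.commTerms (D.neg g) b = []) {Q : Subgroup (GL D.Idx F)}
    (hg1 : xU H.toGood2 b 1 * (xU H.toGood2 g (1 : F) * xU H.toGood2 (D.neg g) 1) ∈ Q) :
    xU H.toGood2 b 1 ∈ Q ∧ xU H.toGood2 g (1 : F) * xU H.toGood2 (D.neg g) 1 ∈ Q := by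
  have hcom : Commute (xU H.toGood2 b (1 : F)) (xU H.toGood2 g (1 : F) * xU H.toGood2 (D.neg g) 1) := by
    have e1 : Commute (xU H.toGood2 b (1 : F)) (xU H.toGood2 g (1 : F)) := comm_nil H hg hb h1 h2 hc1 1 1
    have e2 : Commute (xU H.toGood2 b (1 : F)) (xU H.toGood2 (D.neg g) (1 : F)) := comm_nil H (neg_lt H.toGood1 hg) hb h2 h2' hc2 1 1
    exact e1.mul_right e2
  have hb2 : xU H.toGood2 b (1 : F) ^ 2 = 1 := by rw [pow_two]; exact sq_one H hF hb
  have hc3 := c_cube H hF hg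
  constructor
  · have h4 := pow_mem hg1 3
    rw [hcom.mul_pow, hc3, mul_one, pow_succ, hb2, one_mul] at h4
    exact h4
  · have h4 := pow_mem hg1 4
    have e1 : xU H.toGood2 b (1 : F) ^ 4 = 1 := by
      rw [show (4 : ℕ) = 2 * 2 from rfl, pow_mul, hb2, one_pow]
    rw [hcom.mul_pow, e1, one_mul, pow_succ, hc3, one_mul] at h4
    exact h4

theorem small_one (H : Good D) (hF : ∀ x : F, x = 0 ∨ x = 1) {g s d : ℕ} {n : ℤ} (hg : g < D.nroots) (hs : s < D.nroots) (hd : d < D.nroots) (h1 : s ≠ g)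
    (h2 : s ≠ D.neg g) (h3 : s ≠ D.neg (D.neg g)) (hc : D.commTerms g s = [(d, n, 1, 1)]) (hn : n = 1 ∨ n = -1) (hc2 : D.commTerms (D.neg g) s = [])
    {Q : Subgroup (GL D.Idx F)} (hQc : xU H.toGood2 g (1 : F) * xU H.toGood2 (D.neg g) 1 ∈ Q) (hsQ : xU H.toGood2 s (1 : F) ∈ Q) :
    xU H.toGood2 d (1 : F) ∈ Q := by
  set x := xU H.toGood2 g (1 : F)
  set y := xU H.toGood2 (D.neg g) (1 : F)
  have e1 := comm_one H hg hs h1 h2 hc (1 : F) 1
  have e2 : xU H.toGood2 s (1 : F) * y = y * xU H.toGood2 s 1 := comm_nil H (neg_lt H.toGood1 hg) hs h2 h3 hc2 1 1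
  have e3 : (n : F) * (-1) * 1 = 1 := by
    rw [neg_one_eq hF, mul_one, mul_one]
    rcases hn with rfl | rfl
    · simp
    · rw [Int.cast_neg, Int.cast_one]; exact neg_one_eq hF
  rw [e3] at e1
  have hxx : x * x = 1 := sq_one H hF hg
  have hx : x⁻¹ = x := inv_eq_of_mul_eq_one_left hxx
  have key : xU H.toGood2 d (1 : F) = (xU H.toGood2 s 1)⁻¹ * ((x * y) * xU H.toGood2 s 1 * (x * y)⁻¹) := by
    have e4 : (x * y) * xU H.toGood2 s 1 * (x * y)⁻¹ = x * (y * xU H.toGood2 s 1) * y⁻¹ * x⁻¹ := by group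
    rw [e4, ← e2]
    have e5 : x * (xU H.toGood2 s 1 * y) * y⁻¹ * x⁻¹ = x * (xU H.toGood2 s 1 * x⁻¹) := by group
    rw [e5, hx, e1, mul_assoc x, ← mul_assoc x x, hxx, one_mul, inv_mul_cancel_left]
  rw [key]
  exact mul_mem (inv_mem hsQ) (mul_mem (mul_mem hQc hsQ) (inv_mem hQc))

theorem small_two (H : Good D) (hF : ∀ x : F, x = 0 ∨ x = 1) {g s v d : ℕ} {n m : ℤ} (hg : g < D.nroots) (hs : s < D.nroots) (h1 : s ≠ g)
    (h2 : s ≠ D.neg g) (h3 : s ≠ D.neg (D.neg g)) (hc : D.commTerms g s = [(v, n, 1, 1), (d, m, 1, 2)]) (hn : n = 1 ∨ n = -1)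
    (hm : m = 1 ∨ m = -1) (hc2 : D.commTerms (D.neg g) s = [])
    {Q : Subgroup (GL D.Idx F)} (hQc : xU H.toGood2 g (1 : F) * xU H.toGood2 (D.neg g) 1 ∈ Q) (hsQ : xU H.toGood2 s (1 : F) ∈ Q)
    (hvQ : xU H.toGood2 v (1 : F) ∈ Q) : xU H.toGood2 d (1 : F) ∈ Q := by
  set x := xU H.toGood2 g (1 : F)
  set y := xU H.toGood2 (D.neg g) (1 : F)
  have e1 := comm_two H hg hs h1 h2 hc (1 : F) 1
  have e2 : xU H.toGood2 s (1 : F) * y = y * xU H.toGood2 s 1 := comm_nil H (neg_lt H.toGood1 hg) hs h2 h3 hc2 1 1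
  have e3 : ∀ n : ℤ, (n = 1 ∨ n = -1) → (n : F) * (-1) = 1 := by
    intro n hn
    rw [neg_one_eq hF, mul_one]
    rcases hn with rfl | rfl
    · simp
    · rw [Int.cast_neg, Int.cast_one]; exact neg_one_eq hF
  rw [e3 n hn, e3 m hm, one_pow, mul_one] at e1
  have hxx : x * x = 1 := sq_one H hF hg
  have hx : x⁻¹ = x := inv_eq_of_mul_eq_one_left hxx
  have key : xU H.toGood2 d (1 : F) = (xU H.toGood2 v 1)⁻¹ * ((xU H.toGood2 s 1)⁻¹ * ((x * y) * xU H.toGood2 s 1 * (x * y)⁻¹)) := by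
    have e4 : (x * y) * xU H.toGood2 s 1 * (x * y)⁻¹ = x * (y * xU H.toGood2 s 1) * y⁻¹ * x⁻¹ := by group
    rw [e4, ← e2]
    have e5 : x * (xU H.toGood2 s 1 * y) * y⁻¹ * x⁻¹ = x * (xU H.toGood2 s 1 * x⁻¹) := by group
    rw [e5, hx, e1, mul_assoc x, ← mul_assoc x x, hxx, one_mul, inv_mul_cancel_left, inv_mul_cancel_left]
  rw [key]
  exact mul_mem (inv_mem hvQ) (mul_mem (inv_mem hsQ) (mul_mem (mul_mem hQc hsQ) (inv_mem hQc)))

/-- the data for the field with two elements -/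
def smallB (D : ChevalleyDatum) (W : List ℕ) (b g s d : ℕ) (P1 P2 : List (ℕ × ℕ × ℕ)) : Bool :=
  decide (b < D.nroots ∧ g < D.nroots ∧ s < D.nroots ∧ d < D.nroots ∧ b ≠ g ∧ b ≠ D.neg g ∧ b ≠ D.neg (D.neg g) ∧ s ≠ g ∧ s ≠ D.neg g ∧ s ≠ D.neg (D.neg g) ∧
    D.commTerms g b = [] ∧ D.commTerms (D.neg g) b = [] ∧ D.commTerms (D.neg g) s = []) &&
  chk D W P1 [b] && ([b] ++ P1.map fun p => p.2.2).contains s &&
  (match D.commTerms g s with
    | [(v, n, 1, 1)] => v == d && (n == 1 || n == -1)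
    | [(v, n, 1, 1), (w, m, 1, 2)] => w == d && (n == 1 || n == -1) && (m == 1 || m == -1) && ([b] ++ P1.map fun p => p.2.2).contains v
    | _ => false) && chk D W P2 [b, d] && fullL D P2 [b, d]

theorem two_small (H : Good D) (hF : ∀ x : F, x = 0 ∨ x = 1) {W : List ℕ} (hW : ∀ i ∈ W, i < D.rank) {b g s d : ℕ} {P1 P2 : List (ℕ × ℕ × ℕ)}
    (h : smallB D W b g s d P1 P2 = true) : ∃ a b : ↥(D.group F), Subgroup.closure ({a, b} : Set ↥(D.group F)) = ⊤ := by
  unfold smallB at h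
  rw [Bool.and_eq_true, Bool.and_eq_true, Bool.and_eq_true, Bool.and_eq_true, Bool.and_eq_true, decide_eq_true_eq] at h
  obtain ⟨⟨⟨⟨⟨⟨hb, hg, hs, hd, a1, a2, a3, a4, a5, a6, a7, a8, a9⟩, p1⟩, p2⟩, p3⟩, p4⟩, p5⟩ := h
  refine two_of (a := xU H.toGood2 b 1 * (xU H.toGood2 g (1 : F) * xU H.toGood2 (D.neg g) 1)) (b := nW H W)
    (mul_mem (xU_mg H hb _) (mul_mem (xU_mg H hg _) (xU_mg H (neg_lt H.toGood1 hg) _))) (nW_mem H hW) ?_
  set Q := Subgroup.closure {xU H.toGood2 b 1 * (xU H.toGood2 g (1 : F) * xU H.toGood2 (D.neg g) 1), nW H W} with hQ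
  have hn : nW H W ∈ Q := Subgroup.subset_closure (by simp)
  obtain ⟨q1, q2⟩ := small_mem H hF hb hg a1 a2 a3 a7 a8 (Q := Q) (Subgroup.subset_closure (by simp))
  have hK := chk_has hW hn P1 [b] (by
    intro r hr
    have : r = b := by simpa using hr
    rw [this]
    exact ⟨hb, (has_iff hF).2 q1⟩) p1
  have hsQ := (has_iff hF).1 (hK s (List.contains_iff_mem.mp p2)).2
  have hdQ : xU H.toGood2 d (1 : F) ∈ Q := by
    split at p3
    · next v n h1 =>
      rw [Bool.and_eq_true, Bool.or_eq_true] at p3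
      have e1 : v = d := by simpa using p3.1
      rw [e1] at h1
      exact small_one H hF hg hs hd a4 a5 a6 h1 (by simpa using p3.2) a9 q2 hsQ
    · next v n w m h1 =>
      rw [Bool.and_eq_true, Bool.and_eq_true, Bool.and_eq_true, Bool.or_eq_true, Bool.or_eq_true] at p3
      obtain ⟨⟨⟨e1, e2⟩, e3⟩, e4⟩ := p3
      have e1 : w = d := by simpa using e1
      rw [e1] at h1
      exact small_two H hF hg hs a4 a5 a6 h1 (by simpa using e2) (by simpa using e3) a9 q2 hsQ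
        ((has_iff hF).1 (hK v (List.contains_iff_mem.mp e4)).2)
    · exact absurd p3 (by simp)
  refine group_le_chk hW hn (K := [b, d]) ?_ p4 p5
  intro r hr
  simp only [List.mem_cons, List.not_mem_nil, or_false] at hr
  rcases hr with rfl | rfl
  · exact ⟨hb, (has_iff hF).2 q1⟩
  · exact ⟨hd, (has_iff hF).2 hdQ⟩

/-- the data for the other fields -/
def bigB (D : ChevalleyDatum) (W : List ℕ) (a b b' s k : ℕ) (P : List (ℕ × ℕ × ℕ)) : Bool :=
  decide (a < D.nroots ∧ b < D.nroots ∧ b' < D.nroots ∧ s < D.nroots ∧ (pr D s a = 1 ∨ pr D s a = -1) ∧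
    (pr D (wact D W s) a = 1 ∨ pr D (wact D W s) a = -1) ∧ pr D s b = 0 ∧ (pr D s b' = 1 ∨ pr D s b' = -1) ∧ (wact D W)^[k] b' = b) &&
  chk D W P [a, b'] && fullL D P [a, b']

theorem two_big' [Fintype F] (H : Good D) (hF : ∃ x : F, x ≠ 0 ∧ x ≠ 1) {W : List ℕ} (hW : ∀ i ∈ W, i < D.rank) {a b b' s k : ℕ}
    {P : List (ℕ × ℕ × ℕ)} (h : bigB D W a b b' s k P = true) : ∃ a b : ↥(D.group F), Subgroup.closure ({a, b} : Set ↥(D.group F)) = ⊤ := by
  unfold bigB at h
  rw [Bool.and_eq_true, Bool.and_eq_true, decide_eq_true_eq] at h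
  obtain ⟨⟨⟨a1, a2, a3, a4, a5, a6, a7, a8, a9⟩, p1⟩, p2⟩ := h
  exact two_big H hF hW a1 a2 a3 a4 a5 a6 a7 a8 a9 p1 p2

end

end Cfsg.Agent.ChevU.TG
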