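import Cfsg.Agent.ChevU.TGenD

set_option autoImplicit false
set_option maxRecDepth 100000
set_option linter.unusedVariables false

/-!
# Chevalley groups are generated by two elements (helper17)
-/

namespace Cfsg.Agent.ChevU.TG

open Cfsg.Lie Cfsg.Agent.Chev Cfsg.Agent.ChevGrp Cfsg.Agent.ChevWeyl

theorem tB2a : wact chevB2 [0, 1] 7 = 4 ∧ pr chevB2 7 5 = 1 ∧ pr chevB2 4 5 = -1 ∧ pr chevB2 7 3 = 0 ∧ pr chevB2 5 7 = 2 ∧
    (wact chevB2 [0, 1])^[3] 7 = 3 := by decide +kernel
theorem tB2b : chevB2.commTerms 5 6 = [(7, 2, 1, 1)] ∧ chevB2.neg 5 = 2 := by decide +kernel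
theorem tB2c : chk chevB2 [0, 1] [(5, 5, 6), (6, 6, 2), (2, 2, 1)] [5] = true := by decide +kernel
theorem tB2d : chk chevB2 [0, 1] [(5, 5, 6), (6, 6, 2), (2, 2, 1), (7, 7, 4), (4, 4, 0), (0, 0, 3)] [5, 7] = true := by decide +kernel
theorem tB2e : fullL chevB2 [(5, 5, 6), (6, 6, 2), (2, 2, 1), (7, 7, 4), (4, 4, 0), (0, 0, 3)] [5, 7] = true := by decide +kernel

variable {F : Type*} [Field F]

theorem two_B2 [Fintype F] (hF : ∃ x : F, x ≠ 0 ∧ x ≠ 1) :
    ∃ a b : ↥(chevB2.group F), Subgroup.closure ({a, b} : Set ↥(chevB2.group F)) = ⊤ := by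
  have H : Good chevB2 := good_of_mem (by simp [data])
  obtain ⟨t1, t2, t3, t4, t5, t6⟩ := tB2a
  have hW : ∀ i ∈ [0, 1], i < chevB2.rank := by decide
  obtain ⟨ζ, hζ⟩ := exists_gen (F := F)
  have h3 : (3 : ℕ) < chevB2.nroots := by decide
  have h5 : (5 : ℕ) < chevB2.nroots := by decide
  have h6 : (6 : ℕ) < chevB2.nroots := by decide
  have h7 : (7 : ℕ) < chevB2.nroots := by decide
  refine two_of (a := Inst.hU H 7 (ζ : F) * xU H.toGood2 3 1) (b := xU H.toGood2 5 1 * nW H [0, 1])
    (mul_mem (hU_mem_group H h7 _) (xU_mg H h3 _)) (mul_mem (xU_mg H h5 _) (nW_mem H hW)) ?_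
  set Q := Subgroup.closure {Inst.hU H 7 (ζ : F) * xU H.toGood2 3 1, xU H.toGood2 5 1 * nW H [0, 1]} with hQ
  obtain ⟨q1, q2, q3, q4⟩ := big_mem H hW h5 h3 h7 (Or.inl t2) (by rw [t1]; exact Or.inr t3) t4 hζ (gen_ne_one hζ hF) (Q := Q)
    (Subgroup.subset_closure (by simp)) (Subgroup.subset_closure (by simp))
  have hK := chk_has hW q1 _ [5] (by
    intro r hr
    have : r = 5 := by simpa using hr
    rw [this]
    exact ⟨h5, q2⟩) tB2c
  have k6 := (hK 6 (by simp)).2
  have k2 := (hK 2 (by simp)).2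
  have q7 : Has H Q 7 := by
    by_cases h2 : (2 : F) = 0
    · -- characteristic two
      have h8 : One H Q 7 := One.backs hW q1 3 h7 (by rw [t6]; exact q3)
      obtain ⟨u, hu, h8⟩ := h8
      haveI : CharP F 2 := CharTwo.of_one_ne_zero_of_two_eq_zero one_ne_zero h2
      intro t
      by_cases ht : t = 0
      · rw [ht, Inst.xU_zero]; exact one_mem _
      obtain ⟨c, hc⟩ := FiniteField.isSquare_of_char_two (ringChar.eq F 2 ▸ rfl : ringChar F = 2) (t / u)
      have hc0 : c ≠ 0 := by
        rintro rfl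
        rw [mul_zero] at hc
        exact div_ne_zero ht hu hc
      have hh : Inst.hU H 5 c ∈ Q := by
        have hn : ∀ c : F, Inst.nU H 5 c ∈ Q := fun c => nU_mem H h5 c q2 (by rw [tB2b.2]; exact k2)
        exact mul_mem (hn _) (hn _)
      have h9 := mul_mem (mul_mem hh h8) (inv_mem hh)
      rw [Inst.hU_xU H h5 hc0 h7, t5] at h9
      have e : c ^ (2 : ℤ) * u = t := by
        rw [show (2 : ℤ) = ((2 : ℕ) : ℤ) from rfl, zpow_natCast, pow_two, ← hc, div_mul_cancel₀ _ hu]
      rw [e] at h9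
      exact h9
    · exact Has.comm h5 h6 (by norm_num) (by rw [tB2b.2]; norm_num) tB2b.1 (by exact_mod_cast h2) q2 k6
  refine group_le_chk hW q1 (K := [5, 7]) ?_ tB2d tB2e
  intro r hr
  simp only [List.mem_cons, List.not_mem_nil, or_false] at hr
  rcases hr with rfl | rfl
  · exact ⟨h5, q2⟩
  · exact ⟨h7, q7⟩

theorem main [Finite F] (D : ChevalleyDatum) (hD : D ∈ [chevG2, chevB2, chevD4, chevF4, chevE6, chevE7, chevE8])
    (hF : D ∈ [chevB2, chevG2] → ∃ x : F, x ≠ 0 ∧ x ≠ 1) :
    ∃ a b : ↥(D.group F), Subgroup.closure ({a, b} : Set ↥(D.group F)) = ⊤ := by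
  haveI : Fintype F := Fintype.ofFinite F
  have hcase : (∃ x : F, x ≠ 0 ∧ x ≠ 1) ∨ ∀ x : F, x = 0 ∨ x = 1 := by
    by_cases h : ∃ x : F, x ≠ 0 ∧ x ≠ 1
    · exact Or.inl h
    · push Not at h
      right
      intro x
      by_cases hx : x = 0
      · exact Or.inl hx
      · exact Or.inr (h x hx)
  simp only [List.mem_cons, List.not_mem_nil, or_false] at hD
  rcases hD with rfl | rfl | rfl | rfl | rfl | rfl | rfl
  · exact two_big' (good_of_mem (by simp [data])) (hF (by simp)) (by decide) bigG2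
  · exact two_B2 (hF (by simp))
  · rcases hcase with h | h
    · exact two_big' (good_of_mem (by simp [data])) h (by decide) bigD4
    · exact two_small (good_of_mem (by simp [data])) h (by decide) smallD4
  · rcases hcase with h | h
    · exact two_big' (good_of_mem (by simp [data])) h (by decide) bigF4
    · exact two_small (good_of_mem (by simp [data])) h (by decide) smallF4
  · rcases hcase with h | h
    · exact two_big' (good_of_mem (by simp [data])) h (by decide) bigE6
    · exact two_small (good_of_mem (by simp [data])) h (by decide) smallE6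
  · rcases hcase with h | h
    · exact two_big' (good_of_mem (by simp [data])) h (by decide) bigE7
    · exact two_small (good_of_mem (by simp [data])) h (by decide) smallE7
  · rcases hcase with h | h
    · exact two_big' (good_of_mem (by simp [data])) h (by decide) bigE8
    · exact two_small (good_of_mem (by simp [data])) h (by decide) smallE8

end Cfsg.Agent.ChevU.TG
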